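import Cfsg.Agent.Lib.QuadPair.Basic
import Cfsg.Prelude.Def_Transfer

/-!
# Reduction of quadratic actions on subgroups to representations of the quotient
-/

set_option autoImplicit false

universe u

open scoped commutatorElement

namespace Cfsg.Agent.Lib.QuadPair

section Abs

variable {H W : Type*} [Group H] [AddCommGroup W]

/-- Abstract reduction to an injective homomorphism. -/
theorem quad_mem (act : H →* AddMonoid.End W) (C : Subgroup H) [C.Normal] (hC : ∀ h, h ∈ C ↔ act h = 1)
    (hKey : ∀ σ : (H ⧸ C) →* AddMonoid.End W, Function.Injective σ → ∀ γ, Quad σ γ → γ = 1)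
    {h : H} (hq : Quad act h) : h ∈ C := by
  let σ : (H ⧸ C) →* AddMonoid.End W := QuotientGroup.lift C act (fun x hx => (hC x).1 hx)
  have hσ : ∀ x : H, σ (x : H ⧸ C) = act x := fun x => rfl
  have hinj : Function.Injective σ := by
    intro a b hab
    obtain ⟨x, rfl⟩ := QuotientGroup.mk_surjective a
    obtain ⟨y, rfl⟩ := QuotientGroup.mk_surjective b
    rw [hσ, hσ] at hab
    rw [QuotientGroup.eq, hC, map_mul]
    have h1 : act x⁻¹ * act x = 1 := by rw [← map_mul, inv_mul_cancel, map_one]
    rw [← hab, h1]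
  have h1 := hKey σ hinj (h : H ⧸ C) (by
    unfold Quad at *
    rw [hσ]
    exact hq)
  exact (QuotientGroup.eq_one_iff h).1 h1

end Abs

section Main

variable {G : Type u} [Group G] {p : ℕ}

/-- The reduction of the statement to a statement on representations of `H / C_H(V)`. -/
theorem comm_eq_bot (hp : p.Prime) (hp2 : p ≠ 2) (V H : Subgroup G) (hV : Cfsg.IsElementaryAbelian p V)
    (hHV : H ≤ Subgroup.normalizer (V : Set G))
    [hn : ((Subgroup.centralizer (V : Set G)).subgroupOf H).Normal]
    (hKey : ∀ {R : Type u} [Ring R] (σ : (↥H ⧸ (Subgroup.centralizer (V : Set G)).subgroupOf H) →* R),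
      Function.Injective σ → ((p : ℕ) : R) = 0 → (∀ r : R, (2 : R) * r = 0 → r = 0) → ∀ γ, Quad σ γ → γ = 1)
    (A : Subgroup G) (hA : A ≤ H) (hquad : ⁅⁅V, A⁆, A⁆ = ⊥) : ⁅V, A⁆ = ⊥ := by
  obtain ⟨hcomm, hexp⟩ := hV
  letI cg : CommGroup V := { (inferInstance : Group V) with mul_comm := hcomm.is_comm.comm }
  have memV : ∀ h ∈ H, ∀ v ∈ V, h * v * h⁻¹ ∈ V := fun h hh v hv =>
    (Subgroup.mem_normalizer_iff.1 (hHV hh) v).1 hv
  let conj1 : H → (V →* V) := fun h =>
    { toFun := fun v => ⟨h.1 * v.1 * h.1⁻¹, memV _ h.2 _ v.2⟩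
      map_one' := by
        apply Subtype.ext
        simp
      map_mul' := fun x y => by
        apply Subtype.ext
        simp [mul_assoc] }
  let act : H →* AddMonoid.End (Additive V) :=
    { toFun := fun h => MonoidHom.toAdditive (conj1 h)
      map_one' := by
        refine AddMonoidHom.ext fun v => ?_
        show Additive.ofMul (conj1 1 (Additive.toMul v)) = v
        have : conj1 1 (Additive.toMul v) = Additive.toMul v := Subtype.ext (by simp [conj1])
        rw [this]
        rfl
      map_mul' := fun x y => by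
        refine AddMonoidHom.ext fun v => ?_
        show Additive.ofMul (conj1 (x * y) (Additive.toMul v)) =
          Additive.ofMul (conj1 x (conj1 y (Additive.toMul v)))
        congr 1
        apply Subtype.ext
        show (x * y).1 * (Additive.toMul v).1 * (x * y).1⁻¹ =
          x.1 * (y.1 * (Additive.toMul v).1 * y.1⁻¹) * x.1⁻¹
        simp [mul_assoc] }
  have hact : ∀ (h : H) (v : V), act h (Additive.ofMul v) = Additive.ofMul ⟨h.1 * v.1 * h.1⁻¹, memV _ h.2 _ v.2⟩ :=
    fun h v => rfl
  have hpW : ((p : ℕ) : AddMonoid.End (Additive V)) = 0 := by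
    refine AddMonoidHom.ext fun v => ?_
    have h1 : (v.toMul : V) ^ p = 1 := Subtype.ext (hexp _ v.toMul.2)
    have h2 : p • v = 0 := by
      show Additive.ofMul (v.toMul ^ p) = 0
      rw [h1]
      rfl
    exact h2
  have h2W : ∀ r : AddMonoid.End (Additive V), (2 : AddMonoid.End (Additive V)) * r = 0 → r = 0 := by
    intro r hr
    obtain ⟨k, hk⟩ := hp.odd_of_ne_two hp2
    have : r = ((p : ℕ) : AddMonoid.End (Additive V)) * r - (k : AddMonoid.End (Additive V)) * (2 * r) := by
      rw [hk]
      push_cast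
      noncomm_ring
    rw [this, hpW, hr, zero_mul, mul_zero, sub_zero]
  have hC : ∀ h : H, h ∈ (Subgroup.centralizer (V : Set G)).subgroupOf H ↔ act h = 1 := by
    intro h
    rw [Subgroup.mem_subgroupOf, Subgroup.mem_centralizer_iff]
    constructor
    · intro hc
      refine AddMonoidHom.ext fun v => ?_
      apply Additive.toMul.injective
      apply Subtype.ext
      show h.1 * v.toMul.1 * h.1⁻¹ = v.toMul.1
      rw [← hc _ v.toMul.2, mul_inv_cancel_right]
    · intro hc v hv
      have h1 := congrArg (fun f : AddMonoid.End (Additive V) => f (Additive.ofMul (⟨v, hv⟩ : V))) hc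
      have h2 : h.1 * v * h.1⁻¹ = v := congrArg (fun z : Additive V => (z.toMul : V).1) h1
      exact (mul_inv_eq_iff_eq_mul.1 h2).symm
  rw [eq_bot_iff, Subgroup.commutator_le]
  intro v hv a ha
  have haH : a ∈ H := hA ha
  have hcom : ∀ x : V, ⁅(x : G), a⁆ = ((Additive.toMul (Additive.ofMul x - act ⟨a, haH⟩ (Additive.ofMul x)) : V) : G) := by
    intro x
    rw [hact, toMul_sub]
    simp [commutatorElement_def, div_eq_mul_inv, mul_assoc]
  have hq : Quad act (⟨a, haH⟩ : H) := by
    unfold Quad
    refine AddMonoidHom.ext fun w => ?_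
    set E := act ⟨a, haH⟩ with hE
    have h1 : Additive.ofMul w.toMul = w := rfl
    have h3 : ⁅(w.toMul : G), a⁆ ∈ ⁅V, A⁆ := Subgroup.commutator_mem_commutator w.toMul.2 ha
    have h4 : ⁅⁅(w.toMul : G), a⁆, a⁆ = 1 := by
      have := Subgroup.commutator_mem_commutator h3 ha
      rw [hquad] at this
      exact this
    have h5 : (⁅(w.toMul : G), a⁆) = ((Additive.toMul (w - E w) : V) : G) := hcom w.toMul
    have h6 := hcom (Additive.toMul (w - E w))
    rw [← h5, h4] at h6
    have h7 : Additive.ofMul (Additive.toMul (w - E w)) - E (Additive.ofMul (Additive.toMul (w - E w))) = 0 := by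
      apply Additive.toMul.injective
      apply Subtype.ext
      exact h6.symm
    have h8 : (w - E w) - E (w - E w) = 0 := h7
    rw [map_sub] at h8
    have e : ((E - 1) * (E - 1)) w = (w - E w) - (E w - E (E w)) := by
      show E (E w - w) - (E w - w) = _
      rw [map_sub]
      abel
    exact e.trans h8
  have hmem := quad_mem act _ hC (fun σ hinj => hKey σ hinj (by
    simpa using hpW) h2W) hq
  have hcent : a ∈ Subgroup.centralizer (V : Set G) := hmem
  have := Subgroup.mem_centralizer_iff.1 hcent v hv
  rw [commutatorElement_def, this]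
  simp

end Main

end Cfsg.Agent.Lib.QuadPair
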