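import Mathlib

/-!
# Pairs of quadratic elements

Let `A`, `B` be elements of a ring with `A² = B² = 0`. Every product `z` of the units `1 + A`, `1 + B`
has `z + z⁻¹` commuting with `A` and `B`. So when `2` is regular, an element `z` of the group generated
by `1 + A`, `1 + B` with `z² = 1` commutes with `1 + A` and `1 + B`.
-/

set_option autoImplicit false

namespace Cfsg.Agent.Lib.QuadPair

section Ring

variable {R : Type*} [Ring R] {A B : R}

/-- `z` and `z'` are conjugate elements of the quaternion-like algebra generated by `A`, `B`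
over the centralizer of `A` and `B`. -/
def Good (A B z z' : R) : Prop :=
  ∃ α ∈ Subring.centralizer ({A, B} : Set R), ∃ β ∈ Subring.centralizer ({A, B} : Set R),
  ∃ γ ∈ Subring.centralizer ({A, B} : Set R), ∃ δ ∈ Subring.centralizer ({A, B} : Set R),
    z = α + β * A + γ * B + δ * (A * B) ∧
    z' = α + δ * (A * B + B * A) - β * A - γ * B - δ * (A * B)

theorem comm_A {c : R} (h : c ∈ Subring.centralizer ({A, B} : Set R)) : A * c = c * A :=
  (Subring.mem_centralizer_iff.1 h) A (by simp)

theorem comm_B {c : R} (h : c ∈ Subring.centralizer ({A, B} : Set R)) : B * c = c * B :=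
  (Subring.mem_centralizer_iff.1 h) B (by simp)

theorem mem_cen {c : R} (h1 : A * c = c * A) (h2 : B * c = c * B) :
    c ∈ Subring.centralizer ({A, B} : Set R) := by
  rw [Subring.mem_centralizer_iff]
  rintro x (rfl | rfl)
  · exact h1
  · exact h2

theorem T_mem (hA : A * A = 0) (hB : B * B = 0) :
    A * B + B * A ∈ Subring.centralizer ({A, B} : Set R) := by
  apply mem_cen
  · have e1 : A * (A * B) = 0 := by rw [← mul_assoc, hA, zero_mul]
    have e2 : B * A * A = 0 := by rw [mul_assoc, hA, mul_zero]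
    rw [mul_add, add_mul, e1, e2, zero_add, add_zero, mul_assoc]
  · have e1 : B * (B * A) = 0 := by rw [← mul_assoc, hB, zero_mul]
    have e2 : A * B * B = 0 := by rw [mul_assoc, hB, mul_zero]
    rw [mul_add, add_mul, e1, e2, add_zero, zero_add, mul_assoc]

theorem Good.one : Good A B 1 1 := by
  refine ⟨1, Subring.one_mem _, 0, Subring.zero_mem _, 0, Subring.zero_mem _, 0, Subring.zero_mem _, ?_, ?_⟩ <;>
    simp

theorem Good.mul_x (hA : A * A = 0) (hB : B * B = 0) {z z' : R} (h : Good A B z z') :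
    Good A B (z * (1 + A)) ((1 - A) * z') := by
  obtain ⟨α, hα, β, hβ, γ, hγ, δ, hδ, rfl, rfl⟩ := h
  have hT := T_mem hA hB
  refine ⟨α + γ * (A * B + B * A), Subring.add_mem _ hα (Subring.mul_mem _ hγ hT),
    β + α + δ * (A * B + B * A),
    Subring.add_mem _ (Subring.add_mem _ hβ hα) (Subring.mul_mem _ hδ hT),
    γ, hγ, δ - γ, Subring.sub_mem _ hδ hγ, ?_, ?_⟩
  · have hA1 : ∀ x : R, x * A * A = 0 := fun x => by rw [mul_assoc, hA, mul_zero]
    simp only [mul_add, add_mul, sub_mul, mul_one, ← mul_assoc, hA1]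
    noncomm_ring
  · have hA1 : ∀ x : R, x * A * A = 0 := fun x => by rw [mul_assoc, hA, mul_zero]
    have h1 := comm_A hα
    have h2 := comm_A hβ
    have h3 := comm_A hγ
    have h4 := comm_A hδ
    simp only [mul_add, add_mul, sub_mul, mul_sub, one_mul, ← mul_assoc, hA1, h1, h2, h3, h4,
      zero_mul]
    noncomm_ring

theorem Good.mul_y (hA : A * A = 0) (hB : B * B = 0) {z z' : R} (h : Good A B z z') :
    Good A B (z * (1 + B)) ((1 - B) * z') := by
  obtain ⟨α, hα, β, hβ, γ, hγ, δ, hδ, rfl, rfl⟩ := h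
  refine ⟨α, hα, β, hβ, γ + α, Subring.add_mem _ hγ hα, δ + β, Subring.add_mem _ hδ hβ, ?_, ?_⟩
  · have hB1 : ∀ x : R, x * B * B = 0 := fun x => by rw [mul_assoc, hB, mul_zero]
    simp only [mul_add, add_mul, mul_one, ← mul_assoc, hB1]
    noncomm_ring
  · have hB1 : ∀ x : R, x * B * B = 0 := fun x => by rw [mul_assoc, hB, mul_zero]
    have hA1 : ∀ x : R, x * A * A = 0 := fun x => by rw [mul_assoc, hA, mul_zero]
    have h1 := comm_B hα
    have h2 := comm_B hβ
    have h3 := comm_B hγ
    have h4 := comm_B hδ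
    simp only [mul_add, add_mul, sub_mul, mul_sub, one_mul, ← mul_assoc, hB1, h1, h2, h3, h4,
      zero_mul]
    noncomm_ring

/-- The key point: if `z` is self-conjugate then it commutes with `A` and `B`. -/
theorem Good.comm_self (hA : A * A = 0) (hB : B * B = 0) (h2 : ∀ r : R, (2 : R) * r = 0 → r = 0)
    {z : R} (h : Good A B z z) : z * A = A * z ∧ z * B = B * z := by
  obtain ⟨α, hα, β, hβ, γ, hγ, δ, hδ, e1, e2⟩ := h
  have hT := T_mem hA hB
  have hs : z + z = 2 * α + δ * (A * B + B * A) := by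
    calc z + z = (α + β * A + γ * B + δ * (A * B)) +
          (α + δ * (A * B + B * A) - β * A - γ * B - δ * (A * B)) := by
            nth_rewrite 1 [e1]
            nth_rewrite 1 [e2]
            rfl
      _ = _ := by noncomm_ring
  have hc : z + z ∈ Subring.centralizer ({A, B} : Set R) := by
    rw [hs]
    refine Subring.add_mem _ (Subring.mul_mem _ ?_ hα) (Subring.mul_mem _ hδ hT)
    apply mem_cen <;> simp [two_mul, mul_two]
  constructor
  · apply sub_eq_zero.1
    apply h2
    have := comm_A hc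
    have e : (2 : R) * (z * A - A * z) = (z + z) * A - A * (z + z) := by noncomm_ring
    rw [e, this, sub_self]
  · apply sub_eq_zero.1
    apply h2
    have := comm_B hc
    have e : (2 : R) * (z * B - B * z) = (z + z) * B - B * (z + z) := by noncomm_ring
    rw [e, this, sub_self]

end Ring

section Group

variable {Γ R : Type*} [Group Γ] [Ring R] (σ : Γ →* R)

/-- `σ x` is quadratic. -/
def Quad (x : Γ) : Prop := (σ x - 1) * (σ x - 1) = 0

variable {σ}

theorem Quad.inv_eq {x : Γ} (hx : Quad σ x) : σ x⁻¹ = 1 - (σ x - 1) := by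
  have h1 : σ x⁻¹ * σ x = 1 := by rw [← map_mul, inv_mul_cancel, map_one]
  have h2 : σ x * (1 - (σ x - 1)) = 1 := by
    have : σ x * (1 - (σ x - 1)) = 1 - (σ x - 1) * (σ x - 1) := by noncomm_ring
    rw [this, hx, sub_zero]
  calc σ x⁻¹ = σ x⁻¹ * (σ x * (1 - (σ x - 1))) := by rw [h2, mul_one]
    _ = _ := by rw [← mul_assoc, h1, one_mul]

theorem Quad.conj {x : Γ} (hx : Quad σ x) (g : Γ) : Quad σ (g * x * g⁻¹) := by
  unfold Quad at *
  have e : σ (g * x * g⁻¹) - 1 = σ g * (σ x - 1) * σ g⁻¹ := by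
    have h1 : σ g * σ g⁻¹ = 1 := by rw [← map_mul, mul_inv_cancel, map_one]
    rw [map_mul, map_mul, mul_sub, sub_mul, mul_one, h1]
  have h2 : σ g⁻¹ * σ g = 1 := by rw [← map_mul, inv_mul_cancel, map_one]
  rw [e]
  calc σ g * (σ x - 1) * σ g⁻¹ * (σ g * (σ x - 1) * σ g⁻¹)
      = σ g * (σ x - 1) * (σ g⁻¹ * σ g) * (σ x - 1) * σ g⁻¹ := by simp only [mul_assoc]
    _ = σ g * ((σ x - 1) * (σ x - 1)) * σ g⁻¹ := by rw [h2]; simp only [mul_assoc, mul_one]
    _ = 0 := by rw [hx]; simp

/-- Words with the conjugate given by the inverse. -/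
def GoodW (σ : Γ →* R) (x y g : Γ) : Prop := Good (σ x - 1) (σ y - 1) (σ g) (σ g⁻¹)

theorem GoodW.one (x y : Γ) : GoodW σ x y 1 := by
  unfold GoodW
  rw [inv_one, map_one]
  exact Good.one

theorem GoodW.mul_x {x y g : Γ} (hx : Quad σ x) (hy : Quad σ y) (h : GoodW σ x y g) :
    GoodW σ x y (g * x) := by
  unfold GoodW at *
  have := Good.mul_x hx hy h
  rw [add_sub_cancel, ← hx.inv_eq, ← map_mul, ← map_mul, ← mul_inv_rev] at this
  exact this

theorem GoodW.mul_y {x y g : Γ} (hx : Quad σ x) (hy : Quad σ y) (h : GoodW σ x y g) :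
    GoodW σ x y (g * y) := by
  unfold GoodW at *
  have := Good.mul_y hx hy h
  rw [add_sub_cancel, ← hy.inv_eq, ← map_mul, ← map_mul, ← mul_inv_rev] at this
  exact this

/-- An element `z` in the group generated by two quadratic elements with `σ z ^ 2 = 1`
commutes with the generators under `σ`. -/
theorem GoodW.comm {x y z : Γ} (hx : Quad σ x) (hy : Quad σ y) (h2 : ∀ r : R, (2 : R) * r = 0 → r = 0)
    (h : GoodW σ x y z) (hz : σ z * σ z = 1) : σ z * σ x = σ x * σ z := by
  have e : σ z⁻¹ = σ z := by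
    have h1 : σ z⁻¹ * σ z = 1 := by rw [← map_mul, inv_mul_cancel, map_one]
    calc σ z⁻¹ = σ z⁻¹ * (σ z * σ z) := by rw [hz, mul_one]
      _ = σ z := by rw [← mul_assoc, h1, one_mul]
  unfold GoodW at h
  rw [e] at h
  have := (h.comm_self hx hy h2).1
  have e2 : σ x = (σ x - 1) + 1 := by abel
  rw [e2, mul_add, add_mul, this]
  simp

/-- If `p = 0` in `R` then quadratic elements have `p`-th power acting trivially. -/
theorem Quad.pow_eq_one {x : Γ} (hx : Quad σ x) {p : ℕ} (hp : (p : R) = 0) : σ (x ^ p) = 1 := by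
  have key : ∀ n : ℕ, σ (x ^ n) = 1 + (n : R) * (σ x - 1) := by
    intro n
    induction n with
    | zero => simp
    | succ n ih =>
      rw [pow_succ, map_mul, ih]
      have e : σ x = 1 + (σ x - 1) := by abel
      calc (1 + (n : R) * (σ x - 1)) * σ x
          = (1 + (n : R) * (σ x - 1)) * (1 + (σ x - 1)) := by rw [← e]
        _ = 1 + ((n : R) + 1) * (σ x - 1) + (n : R) * ((σ x - 1) * (σ x - 1)) := by noncomm_ring
        _ = _ := by rw [hx]; push_cast; simp
  rw [key, hp, zero_mul, add_zero]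

end Group

end Cfsg.Agent.Lib.QuadPair
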