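import Cfsg.Agent.Lib.QuadPair.SL2
import Cfsg.Agent.Lib.Ree.Abs5

/-!
# No quadratic elements in representations of the Ree groups
-/

set_option autoImplicit false

namespace Cfsg.Agent.Lib.QuadPair

open Cfsg.Agent.Lib.Ree.Abs Cfsg.Agent.Lib.Ree.Psi Cfsg.Agent.Lib.Ree.Words
open scoped MatrixGroups Pointwise

/-- The root element over the prime field. -/
def X0 : Matrix (Fin 7) (Fin 7) (ZMod 3) :=
  !![1, 0, 0, -1, 0, -1, -1;
     0, 1, 0, 0, -1, 0, 1;
     0, 0, 1, 0, 0, 1, 0;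
     0, 0, 0, 1, 0, 0, -1;
     0, 0, 0, 0, 1, 0, 0;
     0, 0, 0, 0, 0, 1, 0;
     0, 0, 0, 0, 0, 0, 1]

/-- The long Weyl element over the prime field. -/
def W0 : Matrix (Fin 7) (Fin 7) (ZMod 3) :=
  !![0, 0, 0, 0, 0, 0, -1;
     0, 0, 0, 0, 0, -1, 0;
     0, 0, 0, 0, -1, 0, 0;
     0, 0, 0, -1, 0, 0, 0;
     0, 0, -1, 0, 0, 0, 0;
     0, -1, 0, 0, 0, 0, 0;
     -1, 0, 0, 0, 0, 0, 0]

/-- The conjugate root element. -/
def Y0 : Matrix (Fin 7) (Fin 7) (ZMod 3) := W0 * X0 * W0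

/-- A word in `X0`, `Y0` of order 2. -/
def Z0 : Matrix (Fin 7) (Fin 7) (ZMod 3) := X0 * Y0 * X0 * Y0 * X0 * Y0 * Y0

theorem Z0_sq : Z0 * Z0 = 1 := by decide +kernel

theorem Z0_comm : Z0 * X0 ≠ X0 * Z0 := by decide +kernel

section

variable {K G R : Type*} [Field K] [Fintype K] [CharP K 3] [Group G] [Ring R] (D : Dat K G)

/-- The embedding of the prime field on matrices. -/
noncomputable def iotaM (K : Type*) [Field K] [CharP K 3] :
    Matrix (Fin 7) (Fin 7) (ZMod 3) →+* Matrix (Fin 7) (Fin 7) K :=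
  (ZMod.castHom (dvd_refl 3) K).mapMatrix

theorem iotaM_injective : Function.Injective (iotaM K) :=
  Matrix.map_injective (ZMod.castHom (dvd_refl 3) K).injective

theorem iota_neg_one : ZMod.castHom (dvd_refl 3) K (-1) = -1 := by simp

theorem rep_x : (D.rep (D.u 0 0 1) : Matrix (Fin 7) (Fin 7) K) = iotaM K X0 := by
  rw [D.rep_u]
  simp only [map_zero, map_one]
  ext i j
  fin_cases i <;> fin_cases j <;> simp [MUc, X0, iotaM]

theorem rep_w : (D.rep D.w : Matrix (Fin 7) (Fin 7) K) = iotaM K W0 := by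
  rw [D.rep_w]
  ext i j
  fin_cases i <;> fin_cases j <;> simp [w7, W0, iotaM]

theorem rep_y : (D.rep (D.w * D.u 0 0 1 * D.w) : Matrix (Fin 7) (Fin 7) K) = iotaM K Y0 := by
  rw [map_mul, map_mul, Units.val_mul, Units.val_mul, rep_x, rep_w, Y0, map_mul, map_mul]

/-- The explicit word. -/
def zW : G := D.u 0 0 1 * (D.w * D.u 0 0 1 * D.w) * D.u 0 0 1 * (D.w * D.u 0 0 1 * D.w) * D.u 0 0 1 *
  (D.w * D.u 0 0 1 * D.w) * (D.w * D.u 0 0 1 * D.w)

theorem rep_z : (D.rep (zW D) : Matrix (Fin 7) (Fin 7) K) = iotaM K Z0 := by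
  unfold zW
  generalize hy : D.w * D.u 0 0 1 * D.w = y
  have hy' : (D.rep y : Matrix (Fin 7) (Fin 7) K) = iotaM K Y0 := by
    rw [← hy]
    exact rep_y D
  simp only [map_mul, Units.val_mul, rep_x, hy']
  simp only [Z0, map_mul]

theorem zW_sq : zW D * zW D = 1 := by
  apply D.rep_inj
  apply Units.ext
  rw [map_mul, Units.val_mul, rep_z, ← map_mul, Z0_sq, map_one, map_one, Units.val_one]

theorem zW_comm : zW D * D.u 0 0 1 ≠ D.u 0 0 1 * zW D := by
  intro h
  have h1 := congrArg (fun g => (D.rep g : Matrix (Fin 7) (Fin 7) K)) h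
  simp only [map_mul, Units.val_mul, rep_z, rep_x] at h1
  rw [← map_mul, ← map_mul] at h1
  exact Z0_comm (iotaM_injective h1)

/-- The central elements of the unipotent group: contradiction. -/
theorem not_quad_x (σ : G →* R) (hinj : Function.Injective σ) (h2 : ∀ r : R, (2 : R) * r = 0 → r = 0) :
    ¬ Quad σ (D.u 0 0 1) := by
  intro hx
  have hy : Quad σ (D.w * D.u 0 0 1 * D.w) := by
    have := hx.conj D.w
    rwa [D.w_inv] at this
  have hG : GoodW σ (D.u 0 0 1) (D.w * D.u 0 0 1 * D.w) (zW D) := by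
    have h0 := GoodW.one (σ := σ) (D.u 0 0 1) (D.w * D.u 0 0 1 * D.w)
    have h1 := (((((((h0.mul_x hx hy).mul_y hx hy).mul_x hx hy).mul_y hx hy).mul_x hx hy).mul_y hx hy).mul_y hx hy)
    rw [one_mul] at h1
    exact h1
  have hz : σ (zW D) * σ (zW D) = 1 := by
    rw [← map_mul, zW_sq, map_one]
  have hc := hG.comm hx hy h2 hz
  apply zW_comm D
  apply hinj
  rw [map_mul, map_mul, hc]

/-- The elements with nonzero middle coordinate: contradiction. -/
theorem not_quad_a (σ : G →* R) (hinj : Function.Injective σ) (h2 : ∀ r : R, (2 : R) * r = 0 → r = 0)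
    {a : K} (ha : a ≠ 0) : ¬ Quad σ (D.u 0 a 0) := by
  intro hq
  let τ : SL(2, K) →* R := σ.comp D.psi
  have hτ : ∀ g : SL(2, K), τ g = 1 ↔ g 0 1 = 0 ∧ g 1 0 = 0 ∧ g 0 0 = g 1 1 := by
    intro g
    rw [← D.psi_eq_one_iff]
    constructor
    · intro h
      apply hinj
      rw [map_one]
      exact h
    · intro h
      show σ (D.psi g) = 1
      rw [h, map_one]
  have hβ : - D.f.θ a ≠ 0 := neg_ne_zero.2 ((map_ne_zero _).2 ha)
  refine not_quad_up τ hτ h2 hβ ?_
  have e : D.psi (upM (- D.f.θ a)) = D.u 0 a 0 := by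
    have h1 := D.psi_up (- D.f.θ a)
    rw [neg_neg, D.f.φθ] at h1
    exact h1
  unfold Quad at *
  show (σ (D.psi (upM (- D.f.θ a))) - 1) * (σ (D.psi (upM (- D.f.θ a))) - 1) = 0
  rw [e]
  exact hq

/-- `κ ↦ κ³ (φ κ)²` is surjective. -/
theorem exists_kappa {b : K} (hb : b ≠ 0) : ∃ κ : Kˣ, (κ : K) ^ 3 * D.f.φ κ ^ 2 * b = 1 := by
  let F : Kˣ →* Kˣ :=
    { toFun := fun κ => κ ^ 3 * Units.map D.f.φ.toMonoidHom κ ^ 2
      map_one' := by simp
      map_mul' := fun x y => by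
        simp only [map_mul]
        rw [mul_pow, mul_pow]
        exact mul_mul_mul_comm _ _ _ _ }
  have hF : Function.Injective F := by
    rw [injective_iff_map_eq_one]
    intro κ hκ
    by_contra hne
    have h1 : (κ : K) ≠ 1 := fun h => hne (Units.ext h)
    have h2 := Cfsg.Agent.Lib.Ree.BN.fr_c3 D.f κ.ne_zero h1
    apply h2
    have := congrArg (fun z : Kˣ => (z : K)) hκ
    simpa [F] using this
  obtain ⟨κ, hκ⟩ := (Finite.injective_iff_surjective.1 hF) (Units.mk0 b hb)⁻¹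
  refine ⟨κ, ?_⟩
  have := congrArg (fun z : Kˣ => (z : K)) hκ
  simp only [F] at this
  have h3 : (κ : K) ^ 3 * D.f.φ κ ^ 2 = b⁻¹ := by simpa using this
  rw [h3]
  exact inv_mul_cancel₀ hb

variable [Finite G]

/-- The unipotent subgroup is a Sylow subgroup. -/
theorem exists_sylow_U' : ∃ P : Sylow 3 G, (P : Subgroup G) = D.U := by
  haveI : Fact (Nat.Prime 3) := ⟨Nat.prime_three⟩
  have h1 : IsPGroup 3 ↥D.U := by
    apply IsPGroup.of_card (n := (2 * D.m + 1) * 3)
    rw [D.card_U, Dat.q, pow_mul]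
  have h2 : ¬ 3 ∣ D.U.index := by
    intro h
    have h4 := Subgroup.card_mul_index D.U
    rw [D.card_U, D.card_G'] at h4
    have h5 : D.U.index = (D.q - 1) * (D.q ^ 3 + 1) := by
      have hq0 : 0 < D.q := by
        rw [Dat.q]
        positivity
      apply Nat.eq_of_mul_eq_mul_left (pow_pos hq0 3)
      rw [h4]
      ring
    rw [h5] at h
    have h6 := D.q_mod3
    have h7 := D.q_ge
    rcases (Nat.Prime.dvd_mul Nat.prime_three).1 h with h8 | h8
    · omega
    · have h9 : 3 ∣ D.q ^ 3 := dvd_pow (Nat.dvd_of_mod_eq_zero h6) (by norm_num)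
      omega
  exact ⟨h1.toSylow h2, rfl⟩

/-- Elements of order 3 are conjugate into the unipotent group. -/
theorem exists_conj_U {γ : G} (h3 : γ ^ 3 = 1) (hne : γ ≠ 1) :
    ∃ (g : G) (t a b : K), g * γ * g⁻¹ = D.u t a b := by
  haveI : Fact (Nat.Prime 3) := ⟨Nat.prime_three⟩
  obtain ⟨P, hP⟩ := exists_sylow_U' D
  have h1 : IsPGroup 3 (Subgroup.zpowers γ) := by
    apply IsPGroup.of_card (n := 1)
    rw [Nat.card_zpowers, orderOf_eq_prime h3 hne, pow_one]
  obtain ⟨Q, hQ⟩ := h1.exists_le_sylow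
  obtain ⟨g, hg⟩ := MulAction.exists_smul_eq G Q P
  have h2 : g * γ * g⁻¹ ∈ (P : Subgroup G) := by
    rw [← hg, Sylow.coe_subgroup_smul]
    exact Subgroup.smul_mem_pointwise_smul _ (MulAut.conj g) _ (hQ (Subgroup.mem_zpowers γ))
  rw [hP] at h2
  obtain ⟨t, a, b, h⟩ := h2
  exact ⟨g, t, a, b, h⟩

include D in
/-- The main statement for the Ree groups. -/
theorem ree_key (σ : G →* R) (hinj : Function.Injective σ) (h3 : (3 : R) = 0)
    (h2 : ∀ r : R, (2 : R) * r = 0 → r = 0) {γ : G} (hγ : Quad σ γ) : γ = 1 := by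
  by_contra hne
  have hγ3 : γ ^ 3 = 1 := hinj (by
    rw [hγ.pow_eq_one (p := 3) (by exact_mod_cast h3), map_one])
  obtain ⟨g, t, a, b, hu⟩ := exists_conj_U D hγ3 hne
  have hq : Quad σ (D.u t a b) := by
    rw [← hu]
    exact hγ.conj g
  have hucube : (D.u t a b) ^ 3 = 1 := by
    rw [← hu, conj_pow, hγ3]
    group
  have ht : t = 0 := by
    have h3K : (3 : K) = 0 := D.three
    have e : D.u t a b ^ 3 = D.u 0 0 (- D.f.φ t * t ^ 2) := by
      rw [pow_succ, pow_two, D.u_mul, D.u_mul]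
      congr 1
      · linear_combination t * h3K
      · linear_combination (a - t * D.f.φ t) * h3K
      · linear_combination (b - t * a) * h3K
    rw [e, ← D.u_zero] at hucube
    obtain ⟨-, -, h⟩ := D.u_inj hucube
    by_contra h0
    have h5 : D.f.φ t ≠ 0 := (map_ne_zero _).2 h0
    have h6 : D.f.φ t * t ^ 2 ≠ 0 := mul_ne_zero h5 (pow_ne_zero _ h0)
    apply h6
    linear_combination -h
  subst ht
  by_cases ha : a = 0
  · subst ha
    have hb : b ≠ 0 := by
      rintro rfl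
      apply hne
      have h1 : g * γ * g⁻¹ = 1 := by rw [hu, D.u_zero]
      have h4 : g * γ = g := by
        calc g * γ = g * γ * g⁻¹ * g := by group
          _ = g := by rw [h1, one_mul]
      exact mul_left_cancel (h4.trans (mul_one g).symm)
    obtain ⟨κ, hκ⟩ := exists_kappa D hb
    have hq2 := hq.conj (D.d κ)
    rw [D.d_conj] at hq2
    simp only [mul_zero, hκ] at hq2
    exact not_quad_x D σ hinj h2 hq2
  · have hq2 := hq.conj (D.u (-(b / a)) 0 0)
    have e : D.u (-(b / a)) 0 0 * D.u 0 a b * (D.u (-(b / a)) 0 0)⁻¹ = D.u 0 a 0 := by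
      rw [mul_inv_eq_iff_eq_mul, D.u_mul, D.u_mul]
      simp only [map_zero, map_neg]
      congr 1
      · ring
      · ring
      · field_simp
        ring
    rw [e] at hq2
    exact not_quad_a D σ hinj h2 ha hq2

end

end Cfsg.Agent.Lib.QuadPair
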