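import Cfsg.Agent.Lib.QuadPair.Basic

/-!
# No quadratic elements in representations of `PSL₂`
-/

set_option autoImplicit false

namespace Cfsg.Agent.Lib.QuadPair

open scoped MatrixGroups

section SL2

variable {F R : Type*} [Field F] [Ring R]

omit [Ring R] in
theorem mul_entry (g h : SL(2, F)) (i j : Fin 2) :
    (g * h).1 i j = g.1 i 0 * h.1 0 j + g.1 i 1 * h.1 1 j := by
  rw [Matrix.SpecialLinearGroup.coe_mul, Matrix.mul_apply, Fin.sum_univ_two]

/-- Upper unitriangular. -/
def upM (c : F) : SL(2, F) := ⟨!![1, c; 0, 1], by simp [Matrix.det_fin_two_of]⟩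

/-- Lower unitriangular. -/
def loM (c : F) : SL(2, F) := ⟨!![1, 0; c, 1], by simp [Matrix.det_fin_two_of]⟩

/-- The monomial element. -/
def wM (c : F) (hc : c ≠ 0) : SL(2, F) := ⟨!![0, c; -c⁻¹, 0], by simp [Matrix.det_fin_two_of, hc]⟩

theorem wM_eq (c : F) (hc : c ≠ 0) : wM c hc = upM c * loM (-c⁻¹) * upM c := by
  apply Subtype.ext
  ext i j
  fin_cases i <;> fin_cases j <;>
    (simp only [mul_entry]; simp [wM, upM, loM, hc])

theorem wM_mul_up (c : F) (hc : c ≠ 0) : wM c hc * upM c = loM (-c⁻¹) * wM c hc := by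
  apply Subtype.ext
  ext i j
  fin_cases i <;> fin_cases j <;>
    (simp only [mul_entry]; simp [wM, upM, loM, hc])

theorem wM_conj (c : F) (hc : c ≠ 0) : wM c hc * upM c * (wM c hc)⁻¹ = loM (-c⁻¹) := by
  rw [wM_mul_up, mul_inv_cancel_right]

theorem upM_neg (c : F) : (upM c)⁻¹ = upM (-c) := by
  apply inv_eq_of_mul_eq_one_right
  apply Subtype.ext
  ext i j
  fin_cases i <;> fin_cases j <;> (simp only [mul_entry]; simp [upM])

/-- If `τ` is a homomorphism from `SL₂` with kernel the scalars then no nontrivial upper unitriangular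
element is quadratic. -/
theorem not_quad_up (τ : SL(2, F) →* R)
    (hτ : ∀ g : SL(2, F), τ g = 1 ↔ g 0 1 = 0 ∧ g 1 0 = 0 ∧ g 0 0 = g 1 1)
    (h2 : ∀ r : R, (2 : R) * r = 0 → r = 0) {c : F} (hc : c ≠ 0) : ¬ Quad τ (upM c) := by
  intro hx
  have hy : Quad τ (loM (-c⁻¹)) := by
    have := hx.conj (wM c hc)
    rwa [wM_conj] at this
  have hG : GoodW τ (upM c) (loM (-c⁻¹)) (wM c hc) := by
    have h0 := GoodW.one (σ := τ) (upM c) (loM (-c⁻¹))
    have h1 := (((h0.mul_x hx hy).mul_y hx hy).mul_x hx hy)
    rw [one_mul, ← wM_eq] at h1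
    exact h1
  have hz : τ (wM c hc) * τ (wM c hc) = 1 := by
    rw [← map_mul, hτ]
    simp only [mul_entry]
    simp [wM, hc]
  have hcomm := hG.comm hx hy h2 hz
  have e1 : τ (loM (-c⁻¹)) = τ (upM c) := by
    rw [← wM_conj c hc, map_mul, map_mul, hcomm, mul_assoc, ← map_mul, mul_inv_cancel, map_one, mul_one]
  have e2 : τ (loM (-c⁻¹) * (upM c)⁻¹) = 1 := by
    rw [map_mul, e1, ← map_mul, mul_inv_cancel, map_one]
  have e3 := ((hτ _).1 e2).1
  rw [upM_neg] at e3
  have e4 : (loM (-c⁻¹) * upM (-c)) 0 1 = -c := by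
    simp only [mul_entry]
    simp [loM, upM]
  rw [e4] at e3
  exact hc (neg_eq_zero.1 e3)

/-- A nontrivial element of `p`-power order `p` in `SL₂` is conjugate to an upper unitriangular one. -/
theorem exists_conj_up {p : ℕ} [Fact p.Prime] [CharP F p] (M : SL(2, F)) (hp : M ^ p = 1) (hM : M ≠ 1) :
    ∃ (P : SL(2, F)) (c : F), c ≠ 0 ∧ P⁻¹ * M * P = upM c := by
  set a := M 0 0 with ha
  set b := M 0 1 with hb
  set c := M 1 0 with hc
  set d := M 1 1 with hd
  have hdet : a * d - b * c = 1 := by
    have := M.2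
    rw [Matrix.det_fin_two] at this
    exact this
  let m : Matrix (Fin 2) (Fin 2) F := M.1
  have hm : m = !![a, b; c, d] := by
    ext i j
    fin_cases i <;> fin_cases j <;> rfl
  have hmp : m ^ p = 1 := by
    have := congrArg (fun g : SL(2, F) => (g : Matrix (Fin 2) (Fin 2) F)) hp
    simpa using this
  have hq : m * m = (a + d) • m - 1 := by
    rw [hm]
    ext i j
    fin_cases i <;> fin_cases j <;>
      simp [Matrix.mul_apply, Fin.sum_univ_two] <;> first | ring1 | linear_combination -hdet
  have hN : (m - 1) * (m - 1) = (a + d - 2) • m := by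
    have e : (m - 1) * (m - 1) = m * m - 2 • m + 1 := by noncomm_ring
    rw [e, hq, sub_smul, add_smul]
    simp only [two_smul, two_nsmul]
    abel_nf
  have hNp : (m - 1) ^ p = 0 := by
    haveI : CharP (Matrix (Fin 2) (Fin 2) F) p := inferInstance
    rw [sub_pow_char_of_commute _ (Commute.one_right m), hmp, one_pow, sub_self]
  have htr : a + d = 2 := by
    have h1 : ((m - 1) * (m - 1)) ^ p = (a + d - 2) ^ p • (1 : Matrix (Fin 2) (Fin 2) F) := by
      rw [hN, smul_pow, hmp]
    have h2 : ((m - 1) * (m - 1)) ^ p = 0 := by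
      rw [(Commute.refl (m - 1)).mul_pow, hNp, zero_mul]
    rw [h2] at h1
    have h3 : (a + d - 2) ^ p = 0 := by
      have h4 := congrFun (congrFun h1 0) 0
      simpa using h4.symm
    have h4 := pow_eq_zero_iff (n := p) (Fact.out : p.Prime).ne_zero |>.1 h3
    linear_combination h4
  by_cases hc0 : c = 0
  · have h1 : a * d = 1 := by
      rw [hc0, mul_zero, sub_zero] at hdet
      exact hdet
    have h2 : (a - 1) ^ 2 = 0 := by
      have : d = 2 - a := by linear_combination htr
      rw [this] at h1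
      linear_combination -h1
    have h3 : a = 1 := by
      have := pow_eq_zero_iff (two_ne_zero) |>.1 h2
      linear_combination this
    have h4 : d = 1 := by
      rw [h3] at htr
      linear_combination htr
    have hb0 : b ≠ 0 := by
      intro hb0
      apply hM
      apply Subtype.ext
      show m = 1
      rw [hm, h3, h4, hb0, hc0]
      ext i j
      fin_cases i <;> fin_cases j <;> simp
    refine ⟨1, b, hb0, ?_⟩
    rw [inv_one, one_mul, mul_one]
    apply Subtype.ext
    show m = _
    rw [hm, h3, h4, hc0]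
    simp [upM]
  · have hP : (!![a - 1, -c⁻¹; c, 0] : Matrix (Fin 2) (Fin 2) F).det = 1 := by
      simp [Matrix.det_fin_two_of, hc0]
    let P : SL(2, F) := ⟨!![a - 1, -c⁻¹; c, 0], hP⟩
    refine ⟨P, -c⁻¹, neg_ne_zero.2 (inv_ne_zero hc0), ?_⟩
    rw [mul_assoc, inv_mul_eq_iff_eq_mul]
    have hd' : d = 2 - a := by linear_combination htr
    have hbc : (a - 1) ^ 2 + b * c = 0 := by
      rw [hd'] at hdet
      linear_combination -hdet
    apply Subtype.ext
    show m * _ = _
    rw [hm]
    ext i j
    fin_cases i <;> fin_cases j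
    · simp only [mul_entry]
      simp [P, upM]
      linear_combination hbc
    · simp only [mul_entry]
      simp [P, upM]
      field_simp
      ring
    · simp only [mul_entry]
      simp [P, upM]
      rw [hd']
      ring
    · simp only [mul_entry]
      simp [P, upM]

end SL2

section PSL

variable {F R : Type*} [Field F] [Ring R]

/-- The scalars in `SL₂`. -/
theorem mem_center_iff' (g : SL(2, F)) :
    g ∈ Subgroup.center SL(2, F) ↔ g 0 1 = 0 ∧ g 1 0 = 0 ∧ g 0 0 = g 1 1 := by
  rw [Matrix.SpecialLinearGroup.mem_center_iff]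
  constructor
  · rintro ⟨r, -, hr⟩
    have e : ∀ i j, g i j = (Matrix.scalar (Fin 2) r) i j := fun i j => by rw [← hr]
    simp [e]
  · rintro ⟨h1, h2, h3⟩
    refine ⟨g 0 0, ?_, ?_⟩
    · have := g.2
      rw [Matrix.det_fin_two] at this
      have e : g.1 0 1 = 0 := h1
      have e' : g.1 1 0 = 0 := h2
      have e'' : g.1 0 0 = g.1 1 1 := h3
      simp only [Fintype.card_fin]
      show g.1 0 0 ^ 2 = 1
      rw [e, e', ← e''] at this
      linear_combination this
    · ext i j
      have e : g.1 0 1 = 0 := h1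
      have e' : g.1 1 0 = 0 := h2
      have e'' : g.1 0 0 = g.1 1 1 := h3
      fin_cases i <;> fin_cases j <;> simp [Matrix.scalar] <;> first | rfl | skip
      all_goals first | exact e.symm | exact e'.symm | exact e'' | skip

/-- The scalar `-1`. -/
def negM : SL(2, F) := ⟨!![-1, 0; 0, -1], by simp [Matrix.det_fin_two_of]⟩

theorem negM_mul_self : (negM : SL(2, F)) * negM = 1 := by
  apply Subtype.ext
  ext i j
  fin_cases i <;> fin_cases j <;> (simp only [mul_entry]; simp [negM])

theorem negM_mem_center : (negM : SL(2, F)) ∈ Subgroup.center SL(2, F) := by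
  rw [mem_center_iff']
  simp [negM]

/-- The main statement for `PSL₂`. -/
theorem psl_key [Finite F] {p : ℕ} [Fact p.Prime] [CharP F p] (hp2 : p ≠ 2)
    (σ : Matrix.ProjectiveSpecialLinearGroup (Fin 2) F →* R) (hinj : Function.Injective σ)
    (hpR : (p : R) = 0) (h2 : ∀ r : R, (2 : R) * r = 0 → r = 0)
    {γ : Matrix.ProjectiveSpecialLinearGroup (Fin 2) F} (hγ : Quad σ γ) : γ = 1 := by
  by_contra hne
  let π : SL(2, F) →* Matrix.ProjectiveSpecialLinearGroup (Fin 2) F :=
    QuotientGroup.mk' (Subgroup.center SL(2, F))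
  have hπ : Function.Surjective π := QuotientGroup.mk'_surjective _
  have hπ1 : ∀ g, π g = 1 ↔ g ∈ Subgroup.center SL(2, F) := fun g => QuotientGroup.eq_one_iff g
  let τ : SL(2, F) →* R := σ.comp π
  have hτ : ∀ g : SL(2, F), τ g = 1 ↔ g 0 1 = 0 ∧ g 1 0 = 0 ∧ g 0 0 = g 1 1 := by
    intro g
    rw [← mem_center_iff', ← hπ1]
    constructor
    · intro h
      apply hinj
      rw [map_one]
      exact h
    · intro h
      show σ (π g) = 1
      rw [h, map_one]
  have hγp : γ ^ p = 1 := hinj (by rw [hγ.pow_eq_one hpR, map_one])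
  obtain ⟨M, rfl⟩ := hπ γ
  have hMp : M ^ p ∈ Subgroup.center SL(2, F) := by
    rw [← hπ1, map_pow, hγp]
  have hodd : Odd p := (Fact.out : p.Prime).odd_of_ne_two hp2
  have hMn : ∃ M' : SL(2, F), π M' = π M ∧ M' ^ p = 1 := by
    have h1 := (mem_center_iff' _).1 hMp
    have hdet := (M ^ p).2
    rw [Matrix.det_fin_two] at hdet
    have e1 : (M ^ p).1 0 1 = 0 := h1.1
    have e2 : (M ^ p).1 1 0 = 0 := h1.2.1
    have e3 : (M ^ p).1 0 0 = (M ^ p).1 1 1 := h1.2.2
    rw [e1, ← e3] at hdet
    have h4 : ((M ^ p).1 0 0 - 1) * ((M ^ p).1 0 0 + 1) = 0 := by linear_combination hdet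
    rcases mul_eq_zero.1 h4 with h5 | h5
    · refine ⟨M, rfl, ?_⟩
      apply Subtype.ext
      ext i j
      fin_cases i <;> fin_cases j
      · simpa using sub_eq_zero.1 h5
      · simpa using e1
      · simpa using e2
      · have := sub_eq_zero.1 h5
        rw [e3] at this
        simpa using this
    · refine ⟨negM * M, ?_, ?_⟩
      · rw [map_mul, (hπ1 _).2 negM_mem_center, one_mul]
      · have hc : Commute (negM : SL(2, F)) M := by
          have := negM_mem_center (F := F)
          exact (Subgroup.mem_center_iff.1 this M).symm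
        have hnp : (negM : SL(2, F)) ^ p = negM := by
          obtain ⟨k, hk⟩ := hodd
          rw [hk, pow_succ, pow_mul, pow_two, negM_mul_self, one_pow, one_mul]
        rw [hc.mul_pow, hnp]
        have hMn' : M ^ p = negM := by
          apply Subtype.ext
          ext i j
          have h6 : (M ^ p).1 0 0 = -1 := by linear_combination h5
          fin_cases i <;> fin_cases j
          · simpa [negM] using h6
          · simpa [negM] using e1
          · simpa [negM] using e2
          · have : (M ^ p).1 1 1 = -1 := by rw [← e3]; exact h6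
            simpa [negM] using this
        rw [hMn', negM_mul_self]
  obtain ⟨M', hM', hM'p⟩ := hMn
  have hM'1 : M' ≠ 1 := by
    rintro rfl
    apply hne
    rw [← hM', map_one]
  obtain ⟨P, c, hc, hPc⟩ := exists_conj_up M' hM'p hM'1
  have hQ : Quad τ M' := by
    unfold Quad at *
    show (σ (π M') - 1) * (σ (π M') - 1) = 0
    rw [hM']
    exact hγ
  have hQ2 : Quad τ (P⁻¹ * M' * P) := by
    have := hQ.conj P⁻¹
    rwa [inv_inv] at this
  rw [hPc] at hQ2
  exact not_quad_up τ hτ h2 hc hQ2

end PSL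

end Cfsg.Agent.Lib.QuadPair
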